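import Mathlib

/-!
# Central cyclic quotients of abelian groups with few generators
-/

set_option autoImplicit false
set_option linter.unusedSectionVars false

namespace Cfsg.Agent.H658

section group

variable {G : Type*} [Group G]

theorem normal_of_le_center'' {U : Subgroup G} (h : U ≤ Subgroup.center G) : U.Normal where
  conj_mem := by
    intro n hn g
    have h1 : g * n * g⁻¹ = n := by
      rw [Subgroup.mem_center_iff.1 (h hn) g]
      group
    rw [h1]
    exact hn

theorem card_map_mk {U E : Subgroup G} [U.Normal] (h : U ≤ E) :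
    Nat.card (E.map (QuotientGroup.mk' U)) * Nat.card U = Nat.card E := by
  rw [← Subgroup.relIndex_ker, QuotientGroup.ker_mk', Subgroup.relIndex,
    ← Subgroup.card_mul_index (U.subgroupOf E), mul_comm,
    Nat.card_congr (Subgroup.subgroupOfEquivOfLe h).toEquiv]

theorem subgroupOf_closure {D H : Subgroup G} {S : Set G} (hS : D = Subgroup.closure S)
    (hDH : D ≤ H) {S' : Set H} (hS' : (Subtype.val '' S' : Set G) = S) :
    D.subgroupOf H = Subgroup.closure S' := by
  apply Subgroup.map_injective (Subgroup.subtype_injective H)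
  rw [Subgroup.subgroupOf_map_subtype, inf_eq_left.2 hDH, hS, MonoidHom.map_closure,
    Subgroup.coe_subtype, hS']

/-- The image of `⟨x, y⟩` modulo `⟨x⟩`. -/
theorem map_closure_pair {x y : G} {U : Subgroup G} [U.Normal] (hU : U = Subgroup.zpowers x) :
    (Subgroup.closure {x, y}).map (QuotientGroup.mk' U) =
      Subgroup.zpowers (QuotientGroup.mk' U y) := by
  rw [MonoidHom.map_closure, Set.image_pair, Subgroup.zpowers_eq_closure]
  have h1 : QuotientGroup.mk' U x = 1 := by
    rw [QuotientGroup.mk'_apply, QuotientGroup.eq_one_iff, hU]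
    exact Subgroup.mem_zpowers x
  rw [h1]
  exact Subgroup.closure_insert_one _

/-- The image of `⟨x, y, z⟩` modulo `⟨x⟩`. -/
theorem map_closure_triple {x y z : G} {U : Subgroup G} [U.Normal] (hU : U = Subgroup.zpowers x) :
    (Subgroup.closure {x, y, z}).map (QuotientGroup.mk' U) =
      Subgroup.closure {QuotientGroup.mk' U y, QuotientGroup.mk' U z} := by
  rw [MonoidHom.map_closure, Set.image_insert_eq, Set.image_pair]
  have h1 : QuotientGroup.mk' U x = 1 := by
    rw [QuotientGroup.mk'_apply, QuotientGroup.eq_one_iff, hU]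
    exact Subgroup.mem_zpowers x
  rw [h1]
  exact Subgroup.closure_insert_one _

end group

section comm

variable {A : Type*} [CommGroup A]

theorem card_le_of_closure_triple [Finite A] {x y z : A}
    (h : Subgroup.closure {x, y, z} = ⊤) : Nat.card A ≤ orderOf x * (orderOf y * orderOf z) := by
  let f : Subgroup.zpowers x × (Subgroup.zpowers y × Subgroup.zpowers z) →* A :=
    (Subgroup.zpowers x).subtype.coprod
      ((Subgroup.zpowers y).subtype.coprod (Subgroup.zpowers z).subtype)
  have hf : Function.Surjective f := by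
    rw [← MonoidHom.range_eq_top, eq_top_iff, ← h, Subgroup.closure_le]
    rintro w (rfl | rfl | rfl)
    · exact ⟨(⟨w, Subgroup.mem_zpowers w⟩, (1, 1)), by simp [f]⟩
    · exact ⟨(1, (⟨w, Subgroup.mem_zpowers w⟩, 1)), by simp [f]⟩
    · exact ⟨(1, (1, ⟨w, Subgroup.mem_zpowers w⟩)), by simp [f]⟩
  calc Nat.card A ≤ Nat.card (Subgroup.zpowers x × (Subgroup.zpowers y × Subgroup.zpowers z)) :=
        Nat.card_le_card_of_surjective f hf
    _ = orderOf x * (orderOf y * orderOf z) := by
        rw [Nat.card_prod, Nat.card_prod, Nat.card_zpowers, Nat.card_zpowers, Nat.card_zpowers]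

end comm

section rank

variable {A : Type*} [Group A] [Finite A]

theorem exists_pair_of_rank (h : Group.rank A = 2) :
    ∃ x y : A, Subgroup.closure {x, y} = ⊤ ∧ Subgroup.zpowers x ≠ ⊤ := by
  classical
  obtain ⟨S, hS, hSt⟩ := Group.rank_spec A
  rw [h, Finset.card_eq_two] at hS
  obtain ⟨x, y, -, rfl⟩ := hS
  refine ⟨x, y, by simpa using hSt, fun hx => ?_⟩
  have h1 : Subgroup.closure (({x} : Finset A) : Set A) = ⊤ := by
    rw [Finset.coe_singleton, ← Subgroup.zpowers_eq_closure, hx]
  have h2 := Group.rank_le h1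
  rw [Finset.card_singleton] at h2
  omega

theorem exists_triple_of_rank (hcomm : ∀ a b : A, a * b = b * a) (h : Group.rank A = 3) :
    ∃ x y z : A, Subgroup.closure {x, y, z} = ⊤ ∧ Subgroup.closure {x, y} ≠ ⊤ ∧
      Nat.card A ≤ orderOf x ^ 3 := by
  classical
  let _ : CommGroup A := { (inferInstance : Group A) with mul_comm := hcomm }
  have key : ∀ x y z : A, Subgroup.closure {x, y, z} = ⊤ → orderOf y ≤ orderOf x →
      orderOf z ≤ orderOf x → ∃ x y z : A, Subgroup.closure {x, y, z} = ⊤ ∧
        Subgroup.closure {x, y} ≠ ⊤ ∧ Nat.card A ≤ orderOf x ^ 3 := by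
    intro x y z hxyz hy hz
    refine ⟨x, y, z, hxyz, fun hxy => ?_, ?_⟩
    · have h1 : Subgroup.closure (({x, y} : Finset A) : Set A) = ⊤ := by
        rw [Finset.coe_pair, hxy]
      have h2 := Group.rank_le h1
      have h3 := Finset.card_le_two (a := x) (b := y)
      omega
    · calc Nat.card A ≤ orderOf x * (orderOf y * orderOf z) := card_le_of_closure_triple hxyz
        _ ≤ orderOf x * (orderOf x * orderOf x) :=
          Nat.mul_le_mul_left _ (Nat.mul_le_mul hy hz)
        _ = orderOf x ^ 3 := by ring
  obtain ⟨S, hS, hSt⟩ := Group.rank_spec A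
  rw [h, Finset.card_eq_three] at hS
  obtain ⟨x, y, z, -, -, -, rfl⟩ := hS
  have hxyz : Subgroup.closure {x, y, z} = ⊤ := by simpa using hSt
  have e1 : ({y, x, z} : Set A) = {x, y, z} := Set.insert_comm _ _ _
  have e2 : ({z, x, y} : Set A) = {x, y, z} := by
    rw [Set.insert_comm z x, Set.pair_comm z y]
  rcases le_total (orderOf y) (orderOf x) with h1 | h1
  · rcases le_total (orderOf z) (orderOf x) with h2 | h2
    · exact key x y z hxyz h1 h2
    · exact key z x y (by rw [e2]; exact hxyz) h2 (h1.trans h2)
  · rcases le_total (orderOf z) (orderOf y) with h2 | h2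
    · exact key y x z (by rw [e1]; exact hxyz) h1 h2
    · exact key z x y (by rw [e2]; exact hxyz) (h1.trans h2) h2

end rank

end Cfsg.Agent.H658
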